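import Cfsg.Agent.SolvFact.Abelian
import Cfsg.Agent.PLocalBasics.ActModel
import Cfsg.Agent.PCore.PConstrained
import Cfsg.Agent.Components.Cores
import Cfsg.Agent.SLn.SmallPSL

/-!
The Thompson factorization of a solvable group with Fitting subgroup a 2-group.
-/

set_option autoImplicit false

namespace CfsgLib.SolvFact

open scoped commutatorElement
open CfsgLib.PLocalBasics CfsgLib.ZJ

variable {X : Type*} [Group X] [Finite X]

theorem pPrimeCore_eq_bot_of_fitting [Group.IsSolvable X] {p : ℕ} [Fact p.Prime]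
    (hF : Cfsg.fittingSubgroup X = Cfsg.pCore p X) : Cfsg.pPrimeCore p X = ⊥ := by
  by_contra hne
  set N := Cfsg.pPrimeCore p X with hN
  haveI : Nontrivial N := (Subgroup.nontrivial_iff_ne_bot N).2 hne
  haveI : Group.IsSolvable N := inferInstance
  obtain ⟨D, hD0, hDn, hDc⟩ : ∃ D : Subgroup N, D ≠ ⊥ ∧ D.Normal ∧ IsMulCommutative D := by
    have hex : ∃ n, derivedSeries N n = ⊥ := (Group.isSolvable_def N).1 inferInstance
    classical
    have hn0 : Nat.find hex ≠ 0 := fun h => by
      have := Nat.find_spec hex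
      rw [h, derivedSeries_zero] at this
      exact top_ne_bot this
    obtain ⟨k, hk⟩ := Nat.exists_eq_succ_of_ne_zero hn0
    have hspec := Nat.find_spec hex
    rw [hk, derivedSeries_succ, Subgroup.commutator_self_eq_bot_iff] at hspec
    exact ⟨derivedSeries N k, Nat.find_min hex (by omega), derivedSeries_normal N k, hspec⟩
  haveI := hDc
  have hle : D ≤ Cfsg.fittingSubgroup N :=
    CfsgLib.Components.le_fittingSubgroup hDn (by
      letI : CommGroup D := { (inferInstance : Group D) with mul_comm := hDc.is_comm.comm }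
      infer_instance)
  haveI := CfsgLib.Components.fittingSubgroup_characteristic (G := N)
  have h1 : (Cfsg.fittingSubgroup N).map N.subtype ≤ Cfsg.fittingSubgroup X := by
    refine CfsgLib.Components.le_fittingSubgroup
      (CfsgLib.Components.map_subtype_normal (Cfsg.pPrimeCore_normal p X) _) ?_
    haveI := CfsgLib.Components.fittingSubgroup_isNilpotent (G := N)
    exact Group.nilpotent_of_mulEquiv (Subgroup.equivMapOfInjective _ _ N.subtype_injective)
  rw [hF] at h1
  have h2 : D.map N.subtype ≤ Cfsg.pCore p X ⊓ Cfsg.pPrimeCore p X :=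
    le_inf ((Subgroup.map_mono hle).trans h1) (Subgroup.map_subtype_le D)
  rw [CfsgLib.PCore.inf_eq_bot_of_isPGroup_of_coprime (CfsgLib.PCore.isPGroup_pCore p X)
    (CfsgLib.PCore.pPrimeCore_coprime p X), le_bot_iff, Subgroup.map_eq_bot_iff, Subgroup.ker_subtype,
    le_bot_iff] at h2
  exact hD0 h2

/-- The set of abelian subgroups of largest order is moved by conjugation. -/
theorem maxGood_conj {S A : Subgroup X} (g : X) (hA : A ∈ maxGood 2 false S) :
    A.map (MulAut.conj g).toMonoidHom ∈ maxGood 2 false (S.map (MulAut.conj g).toMonoidHom) :=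
  (mem_maxGood_map_iff _ (fun x _ hx => (MulAut.conj g).injective
    (hx.trans (map_one (MulAut.conj g)).symm)) hA.1).2 hA

/-- The offender inequality for abelian subgroups of largest order. -/
theorem card_ineq {S A B V : Subgroup X} (hA : A ∈ maxGood 2 false S) (hVS : V ≤ S)
    (hV : IsMulCommutative V) (hBA : B ≤ A) (hBV : B ≤ Subgroup.centralizer (V : Set X)) :
    Nat.card B * Nat.card V ≤ Nat.card A * Nat.card ↥(V ⊓ Subgroup.centralizer (A : Set X)) := by
  have hg : Good 2 false (B ⊔ V) := good_sup (good_mono hBA hA.2.1) ⟨hV, fun h => absurd h (by simp)⟩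
    (Subgroup.le_centralizer_iff.1 hBV)
  refine (CfsgLib.Offender.card_mul_le B V).trans ?_
  rw [mul_comm (Nat.card A)]
  refine Nat.mul_le_mul (Subgroup.card_le_of_le (le_inf inf_le_right fun x hx => ?_))
    (hA.2.2 _ (sup_le (hBA.trans hA.1) hVS) hg)
  exact Subgroup.mem_centralizer_iff.2 fun a ha => good_commute hA.2.1 ha (hBA hx.1)

variable {L : Type*} [Group L] [Finite L] (V : Subgroup X) [V.Normal] (f : X →* L) (j : V →* L)

/-- The faithful context given by the image of a normal subgroup. -/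
theorem faithCtx_map (hsep : Cfsg.IsPSolvable 2 X) (hV : Cfsg.IsElementaryAbelian 2 V)
    (hO : Cfsg.pCore 2 (X ⧸ Subgroup.centralizer (V : Set X)) = ⊥) (hj : Function.Injective j)
    (hconj : ∀ (k : X) (v : V), f k * j v * (f k)⁻¹ = j (MulAut.conjNormal k v))
    (hfaith : ∀ k : X, (∀ v : V, f k * j v = j v * f k) → f k = 1) (Y : Subgroup X) [Y.Normal] :
    FaithCtx 2 j.range (Y.map f) := by
  haveI := hV.1
  have hker := ker_eq_centralizer V f j hj hconj hfaith
  refine ⟨?_, ?_, ?_, ?_⟩
  · refine ⟨⟨⟨fun x y => ?_⟩⟩, ?_⟩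
    · obtain ⟨⟨_, u, rfl⟩, ⟨_, w, rfl⟩⟩ := x, y
      exact Subtype.ext (show j u * j w = j w * j u by rw [← map_mul, ← map_mul, mul_comm'])
    · rintro _ ⟨u, rfl⟩
      rw [← map_pow, show u ^ 2 = 1 from Subtype.ext (by simpa using hV.2 u u.2), map_one]
  · rintro _ ⟨g, -, rfl⟩
    refine Subgroup.mem_normalizer_fintype ?_
    rintro _ ⟨v, rfl⟩
    exact ⟨MulAut.conjNormal g v, (hconj g v).symm⟩
  · rw [Subgroup.eq_bot_iff_forall]
    rintro _ ⟨⟨g, -, rfl⟩, hg⟩
    exact hfaith g fun v => (Subgroup.mem_centralizer_iff.1 hg (j v) ⟨v, rfl⟩).symm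
  · let e : X ⧸ Subgroup.centralizer (V : Set X) ≃* f.range :=
      (QuotientGroup.quotientMulEquivOfEq hker.symm).trans (QuotientGroup.quotientKerEquivRange f)
    have hR : Cfsg.pCore 2 f.range = ⊥ := by rw [← CfsgLib.PCore.map_pCore_equiv e, hO, Subgroup.map_bot]
    have hRs : Cfsg.IsPSolvable 2 f.range :=
      CfsgLib.PCore.isPSolvable_of_equiv e (CfsgLib.PCore.isPSolvable_quotient hsep _)
    set N := Y.map f.rangeRestrict with hN
    haveI : N.Normal := Subgroup.Normal.map inferInstance _ f.rangeRestrict_surjective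
    have hNH : N.map f.range.subtype = Y.map f := by
      rw [hN, Subgroup.map_map]; rfl
    let eN : N ≃* Y.map f := (Subgroup.equivMapOfInjective N f.range.subtype f.range.subtype_injective).trans
      (MulEquiv.subgroupCongr hNH)
    have hHO : Cfsg.pCore 2 (Y.map f) = ⊥ := by
      have h := CfsgLib.PCore.map_pCore_normal (p := 2) N
      rw [hR, bot_inf_eq, Subgroup.map_eq_bot_iff, Subgroup.ker_subtype] at h
      rw [← CfsgLib.PCore.map_pCore_equiv eN, le_bot_iff.1 h, Subgroup.map_bot]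
    exact centralizer_pPrimeCore_le 2
      (CfsgLib.PCore.isPSolvable_of_equiv eN (CfsgLib.PCore.isPSolvable_subgroup hRs N)) hHO

/-- Abelian subgroups of largest order act as best offenders. -/
theorem isBest_map (hV : Cfsg.IsElementaryAbelian 2 V) (hj : Function.Injective j)
    (hconj : ∀ (k : X) (v : V), f k * j v * (f k)⁻¹ = j (MulAut.conjNormal k v))
    (hfaith : ∀ k : X, (∀ v : V, f k * j v = j v * f k) → f k = 1)
    {H : Subgroup L} (c : FaithCtx 2 j.range H)
    {S A : Subgroup X} (hS : IsPGroup 2 S) (hVS : V ≤ S) (hA : A ∈ maxGood 2 false S) (hAH : A.map f ≤ H) :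
    Cfsg.IsBestOffenderOn 2 j.range (A.map f) := by
  have hker := ker_eq_centralizer V f j hj hconj hfaith
  have hab : ⁅A.map f, A.map f⁆ = ⊥ := by
    rw [Subgroup.commutator_eq_bot_iff_le_centralizer]
    rintro _ ⟨a, ha, rfl⟩
    refine Subgroup.mem_centralizer_iff.2 ?_
    rintro _ ⟨b, hb, rfl⟩
    rw [← map_mul, ← map_mul, good_commute hA.2.1 hb ha]
  have hcent : Nat.card ↥(V ⊓ Subgroup.centralizer (A : Set X)) ≤
      Nat.card ↥(j.range ⊓ Subgroup.centralizer ((A.map f : Subgroup L) : Set L)) := by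
    rw [← Nat.card_congr (Subgroup.subgroupOfEquivOfLe
      (inf_le_left : V ⊓ Subgroup.centralizer (A : Set X) ≤ V)).toEquiv,
      ← Subgroup.card_map_of_injective hj]
    refine Subgroup.card_le_of_le ?_
    rintro _ ⟨v, hv, rfl⟩
    refine ⟨⟨v, rfl⟩, Subgroup.mem_centralizer_iff.2 ?_⟩
    rintro _ ⟨a, ha, rfl⟩
    refine mul_inv_eq_iff_eq_mul.1 ((hconj a v).trans (congrArg j (Subtype.ext ?_)))
    simp only [MulAut.conjNormal_apply]
    exact mul_inv_eq_iff_eq_mul.2 (Subgroup.mem_centralizer_iff.1 hv.2 a ha)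
  have hcardM : Nat.card ↥(A ⊓ f.ker) * Nat.card (A.map f) = Nat.card A := by
    have hk : (f.subgroupMap A).ker = (A ⊓ f.ker).subgroupOf A := by
      ext x
      rw [MonoidHom.mem_ker, Subtype.ext_iff, Subgroup.mem_subgroupOf, Subgroup.mem_inf, MonoidHom.mem_ker]
      exact ⟨fun h => ⟨x.2, h⟩, fun h => h.2⟩
    rw [← Nat.card_congr (Subgroup.subgroupOfEquivOfLe (inf_le_left : A ⊓ f.ker ≤ A)).toEquiv, ← hk,
      ← Subgroup.card_mul_index (f.subgroupMap A).ker, Subgroup.index_ker,
      MonoidHom.range_eq_top.2 (MonoidHom.subgroupMap_surjective _ _), Subgroup.card_top]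
  have h1 := card_ineq hA hVS hV.1 (inf_le_left : A ⊓ f.ker ≤ A) (inf_le_right.trans hker.le)
  rw [← hcardM, mul_assoc] at h1
  have he : Offender.measure j.range (A.map f) = Nat.card j.range := by
    refine le_antisymm (measure_le_abelian c hAH hab) ?_
    rw [Offender.measure, ← Nat.card_congr (MonoidHom.ofInjective hj).toEquiv]
    exact (Nat.le_of_mul_le_mul_left h1 Nat.card_pos).trans (Nat.mul_le_mul_left _ hcent)
  have hsq := sq_of_measure c _ _ rfl hAH hab ((hS.to_le hA.1).map f) he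
  exact ⟨fun B hB => (measure_le_abelian c (hB.trans hAH)
      (le_bot_iff.1 ((Subgroup.commutator_mono hB hB).trans hab.le))).trans he.ge,
    hab.trans_le bot_le, fun a ha => by rw [hsq a ha]; exact one_mem _⟩

omit [Finite X] in
/-- A faithful group generated by best offenders at the prime two is a power of `S₃`. -/
theorem exists_pi_equiv {W H : Subgroup L} (c : FaithCtx 2 W H) (hgen : OffGen 2 W H) (hH : H ≠ ⊥) :
    ∃ n : ℕ, 1 ≤ n ∧ Nonempty (H ≃* (Fin n → Equiv.Perm (Fin 3))) := by
  classical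
  let ι := {E : Subgroup L // ∃ A, MinOff 2 W H A ∧ E = factE 2 H A}
  haveI : Fintype ι := Fintype.ofFinite ι
  have hind : iSupIndep fun E : ι => (E : Subgroup L) := by
    rw [iSupIndep_def]
    rintro ⟨E, A, hA, rfl⟩
    rw [disjoint_iff, eq_bot_iff]
    refine (inf_le_inf_left _ ?_).trans (hA.factData c).data.faithW.le
    refine iSup₂_le ?_
    rintro ⟨E', B, hB, rfl⟩ hne
    exact (factE_le_orth c hA hB (fun h => hne (Subtype.ext h))).trans (inf_le_left.trans inf_le_right)
  have hcomm : Pairwise fun i k : ι => ∀ x y : L, x ∈ (i : Subgroup L) → y ∈ (k : Subgroup L) → Commute x y := by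
    rintro ⟨E, A, hA, rfl⟩ ⟨E', B, hB, rfl⟩ hne x y hx hy
    exact Subgroup.mem_centralizer_iff.1 (orth_le_centralizer c (hA.factData c)
      (factE_le_orth c hA hB (fun h => hne (Subtype.ext h.symm)) hy)) x hx
  have hsup : (⨆ E : ι, (E : Subgroup L)) = H := by
    refine le_antisymm (iSup_le ?_) ((le_iSup_factE c hgen).trans
      (iSup_le fun B => le_iSup (fun E : ι => (E : Subgroup L)) ⟨_, B, B.2, rfl⟩))
    rintro ⟨E, A, hA, rfl⟩
    exact (hA.factData c).leH
  let φ : (∀ E : ι, (E : Subgroup L)) →* L := Subgroup.noncommPiCoprod hcomm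
  have hφinj : Function.Injective φ := Subgroup.injective_noncommPiCoprod_of_iSupIndep (hcomm := hcomm) hind
  have hφr : φ.range = H := Subgroup.noncommPiCoprod_range.trans hsup
  obtain ⟨ψ⟩ := CfsgLib.SLn.sl_iso_perm_of_card_two (ZMod 2) (ZMod.card 2)
  have hE : ∀ E : ι, Nonempty ((E : Subgroup L) ≃* Equiv.Perm (Fin 3)) := by
    rintro ⟨E, A, hA, rfl⟩
    exact ⟨(hA.factData c).data.iso.some.trans ψ⟩
  obtain ⟨A, hA⟩ := exists_minOff c hgen hH
  haveI : Nonempty ι := ⟨⟨_, A, hA, rfl⟩⟩
  refine ⟨Fintype.card ι, Fintype.card_pos, ⟨(MulEquiv.subgroupCongr hφr.symm).trans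
    ((MonoidHom.ofInjective hφinj).symm.trans ((MulEquiv.piCongrRight fun E => (hE E).some).trans ?_))⟩⟩
  exact MulEquiv.arrowCongr (Fintype.equivFin ι) (MulEquiv.refl _)

end CfsgLib.SolvFact
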