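import Cfsg.Agent.PLocalBasics.FactorStructure
import Cfsg.Agent.Transfer.Frobenius
import Cfsg.Agent.PReduced.Basic

/-!
Abelian offenders in a solvable faithful group on an elementary abelian 2-group are elementary abelian.
-/

set_option autoImplicit false

namespace CfsgLib.SolvFact

open scoped commutatorElement
open CfsgLib.PLocalBasics

variable {L : Type*} [Group L] [Finite L] {V H : Subgroup L}

omit [Finite L] in
theorem normalizer_le_normalizer_commutator (X Y : Subgroup L) :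
    Subgroup.normalizer (X : Set L) ⊓ Subgroup.normalizer (Y : Set L) ≤
      Subgroup.normalizer ((⁅X, Y⁆ : Subgroup L) : Set L) := by
  intro g hg
  rw [Subgroup.mem_normalizer_iff_map_conj_eq]
  rw [Subgroup.map_commutator, Subgroup.mem_normalizer_iff_map_conj_eq.1 hg.1,
    Subgroup.mem_normalizer_iff_map_conj_eq.1 hg.2]

theorem sq_of_quadratic (c : FaithCtx 2 V H) {B : Subgroup L} (hBH : B ≤ H)
    (hq : ⁅⁅V, B⁆, B⁆ = ⊥) : ∀ b ∈ B, b ^ 2 = 1 := by
  intro b hb
  refine Subgroup.mem_bot.1 (c.faith.le ⟨pow_mem (hBH hb) 2, Subgroup.mem_centralizer_iff.2 fun v hv => ?_⟩)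
  have hx : ⁅v, b⁆ ∈ V := CfsgLib.CoprimeAction.commutator_le_of_normalizer (hBH.trans c.norm)
    (Subgroup.commutator_mem_commutator hv hb)
  have hxb : ⁅v, b⁆ * b = b * ⁅v, b⁆ := commutatorElement_eq_one_iff_mul_comm.1
    (Subgroup.mem_bot.1 (hq ▸ Subgroup.commutator_mem_commutator (Subgroup.commutator_mem_commutator hv hb) hb))
  refine commutatorElement_eq_one_iff_mul_comm.1 ?_
  calc ⁅v, b ^ 2⁆ = ⁅v, b⁆ * (b * ⁅v, b⁆ * b⁻¹) := by
        simp only [commutatorElement_def, pow_two]; group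
    _ = ⁅v, b⁆ ^ 2 := by rw [← hxb, mul_inv_cancel_right, pow_two]
    _ = 1 := c.el.2 _ hx

theorem measure_le_abelian (c : FaithCtx 2 V H) {A : Subgroup L} (hA : A ≤ H) (hab : ⁅A, A⁆ = ⊥) :
    Offender.measure V A ≤ Nat.card V := by
  obtain ⟨B0, hB0, hmax⟩ := Set.exists_max_image {B : Subgroup L | B ≤ A} (Offender.measure V) (Set.toFinite _)
    ⟨A, le_refl A⟩
  change B0 ≤ A at hB0
  refine (hmax A (le_refl A)).trans ?_
  have hab0 : ⁅B0, B0⁆ = ⊥ := le_bot_iff.1 ((Subgroup.commutator_mono hB0 hB0).trans hab.le)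
  obtain ⟨he, -⟩ := Offender.replacement_subgroup c.el.1 ((hB0.trans hA).trans c.norm)
    (hab0.trans_le bot_le) (fun B hB => hmax B (hB.trans hB0)) V le_rfl
  set B1 := B0 ⊓ Subgroup.centralizer ((⁅V, B0⁆ : Subgroup L) : Set L) with hB1
  have hq : ⁅⁅V, B1⁆, B1⁆ = ⊥ := by
    rw [Subgroup.commutator_eq_bot_iff_le_centralizer]
    exact (Subgroup.commutator_mono le_rfl inf_le_left).trans (Subgroup.le_centralizer_iff.1 inf_le_right)
  have hB1H : B1 ≤ H := inf_le_left.trans (hB0.trans hA)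
  have hsq := sq_of_quadratic c hB1H hq
  have hbest : Cfsg.IsBestOffenderOn 2 V B1 :=
    ⟨fun B hB => (hmax B (hB.trans (inf_le_left.trans hB0))).trans he.ge,
      ((Subgroup.commutator_mono inf_le_left inf_le_left).trans hab0.le).trans bot_le,
      fun a ha => by rw [hsq a ha]; exact one_mem _⟩
  exact he.ge.trans (offenderSetup_of_le c.el c.norm c.faith c.core hB1H hbest).measure_le

/-- An abelian 2-subgroup of measure `|V|` is elementary. -/
theorem sq_of_measure (c : FaithCtx 2 V H) : ∀ (n : ℕ) (A : Subgroup L), Nat.card A = n → A ≤ H →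
    ⁅A, A⁆ = ⊥ → IsPGroup 2 A → Offender.measure V A = Nat.card V → ∀ a ∈ A, a ^ 2 = 1 := by
  intro n
  induction n using Nat.strong_induction_on with
  | _ n ih =>
  intro A hn hAH hab hA2 he
  by_cases hA1 : A = ⊥
  · intro a ha; rw [hA1, Subgroup.mem_bot] at ha; rw [ha, one_pow]
  haveI := c.el.1
  have hVp : IsPGroup 2 V := fun v => ⟨1, Subtype.ext (by simpa using c.el.2 v v.2)⟩
  have hsub : ∀ B : Subgroup L, B ≤ A → B ≤ H ∧ ⁅B, B⁆ = ⊥ ∧ IsPGroup 2 B := fun B hB =>
    ⟨hB.trans hAH, le_bot_iff.1 ((Subgroup.commutator_mono hB hB).trans hab.le), hA2.to_le hB⟩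
  obtain ⟨heB, hCB⟩ := Offender.replacement_subgroup c.el.1 (hAH.trans c.norm) (hab.trans_le bot_le)
    (fun B hB => (measure_le_abelian c (hsub B hB).1 (hsub B hB).2.1).trans he.ge) V le_rfl
  set B := A ⊓ Subgroup.centralizer ((⁅V, A⁆ : Subgroup L) : Set L) with hBdef
  by_cases hBA : B = A
  · refine sq_of_quadratic c hAH ?_
    rw [Subgroup.commutator_eq_bot_iff_le_centralizer]
    exact Subgroup.le_centralizer_iff.1 (hBA.ge.trans (hBdef.trans_le inf_le_right))
  have hlt : ∀ X : Subgroup L, X ≤ A → X ≠ A → Nat.card X < n := fun X hX hne => by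
    rw [← hn]
    by_contra hh
    exact hne (Subgroup.eq_of_le_of_card_ge hX (not_lt.1 hh))
  have hBle : B ≤ A := inf_le_left
  obtain ⟨hBH, hBab, hB2⟩ := hsub B hBle
  have hBsq := ih _ (hlt B hBle hBA) B rfl hBH hBab hB2 (heB.trans he)
  have hB0 : B ≠ ⊥ := by
    intro h0
    have hV : V ≤ ⁅V, A⁆ ⊔ (V ⊓ Subgroup.centralizer (A : Set L)) := by
      rw [← hCB, h0]
      exact le_inf le_rfl fun v _ => Subgroup.mem_centralizer_iff.2 fun y hy => by
        rw [Subgroup.mem_bot.1 hy, one_mul, mul_one]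
    have hWV : ⁅V, A⁆ ≤ V := CfsgLib.CoprimeAction.commutator_le_of_normalizer (hAH.trans c.norm)
    have hNW : V ⊓ Subgroup.centralizer (A : Set L) ≤ Subgroup.normalizer ((⁅V, A⁆ : Subgroup L) : Set L) :=
      fun x hx => Subgroup.centralizer_le_normalizer _ (Subgroup.mem_centralizer_iff.2 fun z hz =>
        setLike_mul_comm (hWV hz) hx.1)
    have hW : ⁅V, A⁆ ≤ ⁅⁅V, A⁆, A⁆ := Subgroup.commutator_le.2 fun v hv a ha => by
      have h1 := hV hv
      rw [← SetLike.mem_coe, Subgroup.coe_mul_of_right_le_normalizer_left _ _ hNW] at h1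
      obtain ⟨w, hw, z, hz, rfl⟩ := h1
      have h2 : ⁅w * z, a⁆ = ⁅w, a⁆ := by
        have hc : a * z = z * a := Subgroup.mem_centralizer_iff.1 hz.2 a ha
        simp only [commutatorElement_def, mul_inv_rev]
        calc w * z * a * (z⁻¹ * w⁻¹) * a⁻¹ = w * (z * a) * z⁻¹ * w⁻¹ * a⁻¹ := by group
          _ = w * (a * z) * z⁻¹ * w⁻¹ * a⁻¹ := by rw [hc]
          _ = _ := by group
      show ⁅w * z, a⁆ ∈ _
      rw [h2]
      exact Subgroup.commutator_mem_commutator hw ha
    set P := V ⊔ A with hP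
    have hP2 : IsPGroup 2 P := IsPGroup.to_sup_of_normal_left' hVp hA2 (hAH.trans c.norm)
    haveI : Group.IsNilpotent P := hP2.isNilpotent
    have hW1 : (⁅V, A⁆).subgroupOf P = ⊥ := by
      refine CfsgLib.Transfer.eq_bot_of_le_commutator_top ?_
      rw [← Subgroup.map_subtype_le_map_subtype, Subgroup.map_commutator,
        Subgroup.map_subgroupOf_eq_of_le (hWV.trans le_sup_left), ← MonoidHom.range_eq_map, Subgroup.range_subtype]
      exact hW.trans (Subgroup.commutator_mono le_rfl le_sup_right)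
    have hW0 : ⁅V, A⁆ = ⊥ := by
      rw [← Subgroup.map_subgroupOf_eq_of_le (hWV.trans (le_sup_left : V ≤ P)), hW1, Subgroup.map_bot]
    refine hA1 (le_bot_iff.1 (le_trans ?_ c.faith.le))
    exact le_inf hAH (Subgroup.le_centralizer_iff.1 (Subgroup.commutator_eq_bot_iff_le_centralizer.1 hW0))
  have hBbest : Cfsg.IsBestOffenderOn 2 V B :=
    ⟨fun X hX => (measure_le_abelian c (hsub X (hX.trans hBle)).1 (hsub X (hX.trans hBle)).2.1).trans
        (heB.trans he).ge, hBab.trans_le bot_le, fun a ha => by rw [hBsq a ha]; exact one_mem _⟩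
  obtain ⟨k, Bs, hBs, -, hsup⟩ := offender_decomposition c.el c.norm c.faith c.core hBH hBbest
  rcases Nat.eq_zero_or_pos k with rfl | hk
  · exact absurd (hsup.symm.trans (iSup_of_empty Bs)) hB0
  obtain ⟨hle1, hb1, hb2, hb3⟩ := hBs ⟨0, hk⟩
  have hmo : MinOff 2 V H (Bs ⟨0, hk⟩) := ⟨hle1.trans hBH, hb1, hb2, hb3⟩
  set A1 := Bs ⟨0, hk⟩ with hA1def
  have d := hmo.factData c
  obtain ⟨a, u, hA1a, hVA1, ht⟩ := hmo.transv c
  have hA1A : A1 ≤ A := hle1.trans hBle
  have haA1 : a ∈ A1 := hA1a ▸ Subgroup.mem_zpowers a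
  have haA : a ∈ A := hA1A haA1
  have hcomm : ∀ x ∈ A, ∀ y ∈ A, x * y = y * x := fun x hx y hy =>
    commutatorElement_eq_one_iff_mul_comm.1
      (Subgroup.mem_bot.1 (hab ▸ Subgroup.commutator_mem_commutator hx hy))
  have hAN1 : A ≤ Subgroup.normalizer (A1 : Set L) := fun g hg =>
    Subgroup.centralizer_le_normalizer _ (Subgroup.mem_centralizer_iff.2 fun y hy => hcomm y (hA1A hy) g hg)
  have hANK : A ≤ Subgroup.normalizer ((coreOf 2 H : Subgroup L) : Set L) := hAH.trans le_normalizer_coreOf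
  have hANR : A ≤ Subgroup.normalizer ((factR 2 H A1 : Subgroup L) : Set L) :=
    (le_inf hANK hAN1).trans (normalizer_le_normalizer_commutator _ _)
  have hANE : A ≤ Subgroup.normalizer ((factE 2 H A1 : Subgroup L) : Set L) :=
    (le_inf hANR hAN1).trans (CfsgLib.PReduced.normalizer_inf_le_normalizer_sup _ _)
  have hANW : A ≤ Subgroup.normalizer ((factW 2 V H A1 : Subgroup L) : Set L) :=
    (le_inf (hAH.trans c.norm) hANE).trans (normalizer_le_normalizer_commutator _ _)
  set W := factW 2 V H A1 with hWdef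
  have hWV : W ≤ V := d.memW c
  have huW : u ∈ W :=
    Subgroup.commutator_mono le_rfl (le_sup_right : A1 ≤ factE 2 H A1) (hVA1.ge (Subgroup.mem_zpowers u))
  have hu2 : u ^ 2 = 1 := c.el.2 u ht.memU
  have hufix : ∀ g ∈ A, g * u = u * g := fun g hg => by
    have hgN : g ∈ Subgroup.normalizer ((⁅V, A1⁆ : Subgroup L) : Set L) :=
      normalizer_le_normalizer_commutator _ _ ⟨c.norm (hAH hg), hAN1 hg⟩
    have h1 : g * u * g⁻¹ ∈ Subgroup.zpowers u :=
      hVA1 ▸ (Subgroup.mem_normalizer_iff.1 hgN u).1 (hVA1.ge (Subgroup.mem_zpowers u))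
    exact aut_pow_coe hu2 ht.neU h1 rfl
  obtain ⟨w, hw, hWuw, hind⟩ := exists_basis c.el hWV d.data.cardW huW ht.neU
  have hw2 : w ^ 2 = 1 := c.el.2 w (hWV hw)
  have hN : Subgroup.zpowers w ≤ Subgroup.normalizer (Subgroup.zpowers u : Set L) :=
    Subgroup.zpowers_le.2 (Subgroup.centralizer_le_normalizer _ (Subgroup.mem_centralizer_iff.2 fun z hz =>
      setLike_mul_comm ((Subgroup.zpowers_le.2 ht.memU) hz) (hWV hw)))
  -- images of `w`
  have himg : ∀ g ∈ A, g * w * g⁻¹ = w ∨ g * w * g⁻¹ = u * w := by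
    intro g hg
    have h1 : g * w * g⁻¹ ∈ Subgroup.zpowers u ⊔ Subgroup.zpowers w :=
      hWuw ▸ (Subgroup.mem_normalizer_iff.1 (hANW hg) w).1 hw
    rw [← SetLike.mem_coe, Subgroup.coe_mul_of_right_le_normalizer_left _ _ hN] at h1
    obtain ⟨x, hx, y, hy, hxy⟩ := h1
    change x * y = g * w * g⁻¹ at hxy
    obtain ⟨i, rfl⟩ := (isOfFinOrder_of_finite u).mem_powers_iff_mem_zpowers.2 hx
    obtain ⟨j, rfl⟩ := (isOfFinOrder_of_finite w).mem_powers_iff_mem_zpowers.2 hy
    change u ^ i * w ^ j = g * w * g⁻¹ at hxy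
    rw [pow_eq_pow_mod i hu2, pow_eq_pow_mod j hw2] at hxy
    rcases Nat.mod_two_eq_zero_or_one i with hi | hi <;>
      rcases Nat.mod_two_eq_zero_or_one j with hj | hj <;>
      simp only [hi, hj, pow_zero, pow_one, one_mul, mul_one] at hxy
    · exfalso
      have : w = 1 := conj_eq_one_iff.1 hxy.symm
      exact absurd (hind 0 1 (by simp [this])).2 (by norm_num)
    · exact Or.inl hxy.symm
    · exfalso
      have h2 : g * u * g⁻¹ = g * w * g⁻¹ := by
        rw [← hxy, hufix g hg, mul_inv_cancel_right]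
      have h3 : u = w := mul_left_cancel (mul_right_cancel h2)
      exact absurd (hind 1 1 (by rw [← h3, pow_one, ← pow_two, hu2])).2 (by norm_num)
    · exact Or.inr hxy.symm
  have haw : a * w * a⁻¹ = u * w := (himg a haA).resolve_left fun h => by
    refine ht.neA (Subgroup.mem_bot.1 (d.data.faithW.le ⟨Subgroup.mem_sup_right haA1, ?_⟩))
    have hle : W ≤ Subgroup.centralizer ({a} : Set L) := hWuw.trans_le (sup_le
      (Subgroup.zpowers_le.2 (Subgroup.mem_centralizer_singleton_iff.2 (hufix a haA).symm))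
      (Subgroup.zpowers_le.2 (Subgroup.mem_centralizer_singleton_iff.2 (mul_inv_eq_iff_eq_mul.1 h).symm)))
    exact Subgroup.mem_centralizer_iff.2 fun z hz => Subgroup.mem_centralizer_singleton_iff.1 (hle hz)
  set A0 := A ⊓ Subgroup.centralizer ({w} : Set L) with hA0
  have haA0 : a ∉ A0 := fun h => by
    have h1 : a * w = w * a := Subgroup.mem_centralizer_singleton_iff.1 h.2
    rw [h1, mul_inv_cancel_right] at haw
    exact ht.neU (mul_eq_right.1 haw.symm)
  have hdich : ∀ g ∈ A, g ∈ A0 ∨ g * a ∈ A0 := by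
    intro g hg
    rcases himg g hg with h | h
    · exact Or.inl ⟨hg, Subgroup.mem_centralizer_singleton_iff.2 (mul_inv_eq_iff_eq_mul.1 h)⟩
    · refine Or.inr ⟨mul_mem hg haA, Subgroup.mem_centralizer_singleton_iff.2 ?_⟩
      refine mul_inv_eq_iff_eq_mul.1 ?_
      calc g * a * w * (g * a)⁻¹ = g * (a * w * a⁻¹) * g⁻¹ := by group
        _ = (g * u * g⁻¹) * (g * w * g⁻¹) := by rw [haw]; group
        _ = w := by rw [hufix g hg, mul_inv_cancel_right, h, ← mul_assoc, ← pow_two, hu2, one_mul]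
  have hA0le : A0 ≤ A := inf_le_left
  obtain ⟨hA0H, hA0ab, hA02⟩ := hsub A0 hA0le
  have hsupA : A0 ⊔ Subgroup.zpowers a = A := by
    refine le_antisymm (sup_le hA0le (Subgroup.zpowers_le.2 haA)) fun g hg => ?_
    rcases hdich g hg with h | h
    · exact Subgroup.mem_sup_left h
    · rw [← mul_inv_cancel_right g a]
      exact mul_mem (Subgroup.mem_sup_left h) (Subgroup.mem_sup_right (inv_mem (Subgroup.mem_zpowers a)))
  haveI : IsMulCommutative A := ⟨⟨fun x y => Subtype.ext (hcomm x x.2 y y.2)⟩⟩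
  have hidx : A0.relIndex A = 2 := by
    have h := CfsgLib.CoprimeAction.relIndex_sup_zpowers (p := 2) hA0le haA ht.powA haA0
    rwa [hsupA] at h
  have hcardA := Offender.card_mul_relIndex_of_le hA0le
  rw [hidx] at hcardA
  -- the fixed points grow
  have hCle : V ⊓ Subgroup.centralizer (A : Set L) ≤ V ⊓ Subgroup.centralizer (A0 : Set L) :=
    inf_le_inf_left _ (Subgroup.centralizer_le hA0le)
  have hgrow : Nat.card ↥(V ⊓ Subgroup.centralizer (A : Set L)) * 2 ≤
      Nat.card ↥(V ⊓ Subgroup.centralizer (A0 : Set L)) := by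
    rw [← Offender.card_mul_relIndex_of_le hCle]
    refine Nat.mul_le_mul_left _ ?_
    by_contra hlt2
    have h0 : (V ⊓ Subgroup.centralizer (A : Set L)).relIndex (V ⊓ Subgroup.centralizer (A0 : Set L)) ≠ 0 := by
      intro h0
      have := Offender.card_mul_relIndex_of_le hCle
      rw [h0, mul_zero] at this
      exact absurd this.symm Nat.card_pos.ne'
    have h1 := Subgroup.relIndex_eq_one.1 (show (V ⊓ Subgroup.centralizer (A : Set L)).relIndex
      (V ⊓ Subgroup.centralizer (A0 : Set L)) = 1 by omega)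
    have hwA := (h1 ⟨hWV hw, Subgroup.mem_centralizer_iff.2 fun g hg =>
      Subgroup.mem_centralizer_singleton_iff.1 hg.2⟩).2
    have h2 : a * w = w * a := Subgroup.mem_centralizer_iff.1 hwA a haA
    exact haA0 ⟨haA, Subgroup.mem_centralizer_singleton_iff.2 h2⟩
  have heA0 : Offender.measure V A0 = Nat.card V := by
    refine le_antisymm (measure_le_abelian c hA0H hA0ab) (he.ge.trans ?_)
    rw [Offender.measure, Offender.measure, ← hcardA, mul_assoc, mul_comm 2]
    exact Nat.mul_le_mul_left _ hgrow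
  have hsq0 := ih _ (hlt A0 hA0le fun h => haA0 (h ▸ haA)) A0 rfl hA0H hA0ab hA02 heA0
  intro g hg
  rcases hdich g hg with h | h
  · exact hsq0 g h
  · have h1 : (g * a) ^ 2 = g ^ 2 * a ^ 2 := (show Commute g a from hcomm g hg a haA).mul_pow 2
    rw [hsq0 _ h, ht.powA, mul_one] at h1
    exact h1.symm

end CfsgLib.SolvFact
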